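import Cfsg.Agent.H130.E7.NoThree
import Cfsg.Agent.H962.E7.Lat

/-!
# NO3PR (helper130, helper962)

`E7(q)`, `q` of order 12 modulo `r`, `p ≠ 3`: no element of order `p * (3 * r)`.
-/

set_option autoImplicit false
set_option linter.unusedSectionVars false

namespace Cfsg.Agent.H130.E7.NoThree

open CoxeterSystem Cfsg Cfsg.Lie Cfsg.Lie.ChevalleyDatum
open Cfsg.Agent.ChevalleyStructure Cfsg.Agent.ChevalleyStructure.CoxeterGeom
open Cfsg.Agent.Tits.Roots Cfsg.Agent.Nodes.Reps Cfsg.Agent.BpExc.RowsUntw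
open Cfsg.Agent.BpExc.Tow Cfsg.Agent.BpExc.TowChev Cfsg.Agent.BpExc.FamExt Cfsg.Agent.BpExc.FamUntw Cfsg.Agent.BpExc.FamInst
open Cfsg.Agent.H378.TorDual Cfsg.Agent.H378.TorChar Cfsg.Agent.H378.TorFin Cfsg.Agent.H378.ExcAdj Cfsg.Agent.H378.ExcNear

universe u

theorem latOk (W : Type*) [Group W] [Finite W] (cs : CoxeterSystem CoxeterMatrix.E₇ W) (k : Type u) [Field k] :
    LatOk W cs k := by
  intro w χ q r hχ hr hr7 hd hq3 h1 h2 h3 a ha
  refine Cfsg.Agent.H962.E7.Lat.chi_ne_one cs hr hr7 hd (fun h => ?_) hχ h1 h2 h3 ha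
  obtain ⟨c, rfl⟩ := h
  have h4 : (3 * c) ^ 2 = 3 * (3 * c ^ 2) := by ring
  omega

/-- **NO3PR**: `E7(q)`, `q` of order 12 modulo the prime `r`, characteristic `p ≠ 3`: no element of order `p * (3 * r)`. -/
theorem no3pr {F : Type u} [Field F] [Finite F] {p : ℕ} [Fact p.Prime] [CharP F p] (h3 : p ≠ 3)
    {r : ℕ} (hr : r.Prime) (hod : od (Nat.card F) r = 12) (x : ↥(chevE7.group F)) : orderOf x ≠ p * (3 * r) := by
  have := Cfsg.Agent.Nodes.RGDChev.finite_W e7T CoxeterMatrix.E₇.toCoxeterSystem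
  exact no3pr_of h3 (fun k _ => latOk _ _ k) hr hod x

end Cfsg.Agent.H130.E7.NoThree
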